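import Cfsg.Agent.Fi22.Quasi
import Cfsg.Agent.FiF4.Core
import Cfsg.Agent.Fi22.Simp
import Cfsg.Agent.ThreeTransp.Irred

/-!
# Lifts of the members of a class of type M(22) to a double cover
-/

set_option autoImplicit false
set_option linter.unusedSectionVars false

namespace Cfsg.Agent.UDbl

open Finset Matrix Module Cfsg.Agent.Uni Cfsg.Agent.Fi22 Cfsg.Agent.ThreeTransp

section six

variable {G : Type*} [Group G] {D : Set G} [Finite G] (h : H22 D)

include h

/-- If the products of six commuting members of `perp D d` are never `d` then hyperovals give hexads. -/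
theorem hyperoval_c {d : G} (hd : d ∈ D) {F : Type} [Field F] [Fintype F] (Δ : Dict D d F)
    (hev : ∀ l : List G, l.Nodup → l.length = 6 → (∀ x ∈ l, x ∈ perp D d) →
      (∀ x ∈ l, ∀ y ∈ l, Commute x y) → l.prod ≠ d)
    {u v w : Fin 6 → F} (hli : LI3 u v w)
    (hu : hermForm 6 F 2 u u = 0) (hv : hermForm 6 F 2 v v = 0) (hw : hermForm 6 F 2 w w = 0)
    (huv : hermForm 6 F 2 u v = 0) (huw : hermForm 6 F 2 u w = 0) (hvw : hermForm 6 F 2 v w = 0)
    {ω : F} (hω : ω ^ 2 = ω + 1) {β : F} (hβ : β ≠ 0) :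
    IsHexad D [Δ.pt u, Δ.pt v, Δ.pt w, Δ.pt (u + v + β • w), Δ.pt (u + ω • v + (β * ω ^ 2) • w),
      Δ.pt (u + ω ^ 2 • v + (β * ω) • w)] := by
  have hF := Δ.hF
  have hω0 := omega_ne_zero hω
  have hω1 := omega_ne_one hF hω
  have hω2 : ω ^ 2 ≠ 0 := pow_ne_zero _ hω0
  have hω3 : ω ^ 2 ≠ 1 := by
    intro h1; rw [h1] at hω
    exact hω0 (by linear_combination -hω)
  have hω4 : ω ≠ ω ^ 2 := by
    intro h1
    rcases sq_eq_self_iff'.1 h1.symm with h2 | h2
    · exact hω0 h2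
    · exact hω1 h2
  set p4 := u + v + β • w with hp4
  set p5 := u + ω • v + (β * ω ^ 2) • w with hp5
  set p6 := u + ω ^ 2 • v + (β * ω) • w with hp6
  have e1 : u = (1 : F) • u + (0 : F) • v + (0 : F) • w := by simp
  have e2 : v = (0 : F) • u + (1 : F) • v + (0 : F) • w := by simp
  have e3 : w = (0 : F) • u + (0 : F) • v + (1 : F) • w := by simp
  have e4 : p4 = (1 : F) • u + (1 : F) • v + β • w := by simp [hp4]
  have e5 : p5 = (1 : F) • u + ω • v + (β * ω ^ 2) • w := by simp [hp5]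
  have e6 : p6 = (1 : F) • u + ω ^ 2 • v + (β * ω) • w := by simp [hp6]
  have n1 : u ≠ 0 := hli.ne (by simp) e1
  have n2 : v ≠ 0 := hli.ne (by simp) e2
  have n3 : w ≠ 0 := hli.ne (by simp) e3
  have n4 : p4 ≠ 0 := hli.ne (by simp) e4
  have n5 : p5 ≠ 0 := hli.ne (by simp) e5
  have n6 : p6 ≠ 0 := hli.ne (by simp) e6
  have hc : ∀ {x y z x' y' z' : F} {p q : Fin 6 → F}, p = x • u + y • v + z • w → q = x' • u + y' • v + z' • w →
    hermForm 6 F 2 p q = 0 := fun hp hq => herm_comb hF hu hv hw huv huw hvw hp hq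
  have s4 := hc e4 e4
  have s5 := hc e5 e5
  have s6 := hc e6 e6
  have hl0 : ∀ z ∈ [u, v, w, p4, p5, p6], z ≠ 0 ∧ hermForm 6 F 2 z z = 0 := by
    simp only [List.mem_cons, List.not_mem_nil, or_false, forall_eq_or_imp, forall_eq]
    exact ⟨⟨n1, hu⟩, ⟨n2, hv⟩, ⟨n3, hw⟩, ⟨n4, s4⟩, ⟨n5, s5⟩, ⟨n6, s6⟩⟩
  have hl1 : ∀ z ∈ [u, v, w, p4, p5, p6], ∃ x y z' : F, z = x • u + y • v + z' • w := by
    simp only [List.mem_cons, List.not_mem_nil, or_false, forall_eq_or_imp, forall_eq]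
    exact ⟨⟨_, _, _, e1⟩, ⟨_, _, _, e2⟩, ⟨_, _, _, e3⟩, ⟨_, _, _, e4⟩, ⟨_, _, _, e5⟩, ⟨_, _, _, e6⟩⟩
  have hl : ∀ z ∈ [u, v, w, p4, p5, p6], ∀ z' ∈ [u, v, w, p4, p5, p6], hermForm 6 F 2 z z' = 0 := by
    intro z hz z' hz'
    obtain ⟨x, y, t, h1⟩ := hl1 z hz
    obtain ⟨x', y', t', h1'⟩ := hl1 z' hz'
    exact hc h1 h1'
  have hcen := (Δ.central_iff hl0 hl).2 (rk_hyperoval hF hω hβ u v w)
  have hnd : ([u, v, w, p4, p5, p6].map Δ.pt).Nodup := by
    have D12 := (Δ.pt_ne_iff n1 hu n2 hv).2 (hli.np (by simp) e1 e2)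
    have D13 := (Δ.pt_ne_iff n1 hu n3 hw).2 (hli.np (by simp) e1 e3)
    have D14 := (Δ.pt_ne_iff n1 hu n4 s4).2 (hli.np (by simp) e1 e4)
    have D15 := (Δ.pt_ne_iff n1 hu n5 s5).2 (hli.np (by simp [hω0]) e1 e5)
    have D16 := (Δ.pt_ne_iff n1 hu n6 s6).2 (hli.np (by simp [hω0]) e1 e6)
    have D23 := (Δ.pt_ne_iff n2 hv n3 hw).2 (hli.np (by simp) e2 e3)
    have D24 := (Δ.pt_ne_iff n2 hv n4 s4).2 (hli.np (by simp) e2 e4)
    have D25 := (Δ.pt_ne_iff n2 hv n5 s5).2 (hli.np (by simp) e2 e5)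
    have D26 := (Δ.pt_ne_iff n2 hv n6 s6).2 (hli.np (by simp) e2 e6)
    have D34 := (Δ.pt_ne_iff n3 hw n4 s4).2 (hli.np (by simp) e3 e4)
    have D35 := (Δ.pt_ne_iff n3 hw n5 s5).2 (hli.np (by simp) e3 e5)
    have D36 := (Δ.pt_ne_iff n3 hw n6 s6).2 (hli.np (by simp) e3 e6)
    have D45 := (Δ.pt_ne_iff n4 s4 n5 s5).2 (hli.np (by
      intro c h1 h2 _
      rw [mul_one] at h1 h2
      exact hω1 (h2.trans h1.symm)) e4 e5)
    have D46 := (Δ.pt_ne_iff n4 s4 n6 s6).2 (hli.np (by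
      intro c h1 h2 _
      rw [mul_one] at h1 h2
      exact hω3 (h2.trans h1.symm)) e4 e6)
    have D56 := (Δ.pt_ne_iff n5 s5 n6 s6).2 (hli.np (by
      intro c h1 h2 _
      rw [mul_one] at h1
      rw [← h1, one_mul] at h2
      exact hω4 h2.symm) e5 e6)
    simp only [List.map_cons, List.map_nil, List.nodup_cons, List.mem_cons, List.not_mem_nil, or_false, not_or,
      List.nodup_nil, and_true, not_false_eq_true]
    exact ⟨⟨D12, D13, D14, D15, D16⟩, ⟨D23, D24, D25, D26⟩, ⟨D34, D35, D36⟩, ⟨D45, D46⟩, D56⟩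
  have hmm : ∀ a ∈ [u, v, w, p4, p5, p6].map Δ.pt, a ∈ perp D d := by
    intro a ha
    obtain ⟨z, hz, rfl⟩ := List.mem_map.1 ha
    exact Δ.pt_mem (hl0 z hz).1 (hl0 z hz).2
  have hcc : ∀ a ∈ [u, v, w, p4, p5, p6].map Δ.pt, ∀ b ∈ [u, v, w, p4, p5, p6].map Δ.pt, Commute a b := by
    intro a ha b hb
    obtain ⟨z, hz, rfl⟩ := List.mem_map.1 ha
    obtain ⟨z', hz', rfl⟩ := List.mem_map.1 hb
    exact (Δ.commute_pt (hl0 z hz).1 (hl0 z hz).2 (hl0 z' hz').1 (hl0 z' hz').2).2 (hl z hz z' hz')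
  have hprod : ([u, v, w, p4, p5, p6].map Δ.pt).prod = 1 := by
    rcases h.centralizer_perp hd hcen with h1 | h1
    · exact h1
    · exact absurd h1 (hev _ hnd (by simp) hmm hcc)
  exact ⟨hnd, rfl, fun a ha => (hmm a ha).1, hcc, hprod⟩

/-- Some product of six commuting members of `perp D d` is `d`. -/
theorem exists_six_c {d : G} (hd : d ∈ D) : ∃ l : List G, l.Nodup ∧ l.length = 6 ∧ (∀ x ∈ l, x ∈ perp D d) ∧
    (∀ x ∈ l, ∀ y ∈ l, Commute x y) ∧ l.prod = d := by
  by_contra hcon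
  push Not at hcon
  obtain ⟨F, i1, i2, ⟨Δ⟩⟩ := h.dict hd
  have hF := Δ.hF
  obtain ⟨ω, hω⟩ := exists_omega hF
  have hω0 := omega_ne_zero hω
  have hω1 := omega_ne_one hF hω
  have hω2 : ω ^ 2 ≠ 0 := pow_ne_zero _ hω0
  have hω3 : ω ^ 2 ≠ 1 := by
    intro h1; rw [h1] at hω
    exact hω0 (by linear_combination -hω)
  have hω4 : ω ≠ ω ^ 2 := by
    intro h1
    rcases sq_eq_self_iff'.1 h1.symm with h2 | h2
    · exact hω0 h2
    · exact hω1 h2
  obtain ⟨U, V, hUV⟩ := exists_HB hF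
  set u := U 0
  set v := U 1
  set w := U 2
  have hli : LI3 u v w := by
    intro x y z h0
    have h1 := Fintype.linearIndependent_iff.1 hUV.li ![x, y, z] (by
      rw [Fin.sum_univ_three]; simpa using h0)
    exact ⟨h1 0, h1 1, h1 2⟩
  have hu : hermForm 6 F 2 u u = 0 := hUV.uu _ _
  have hv : hermForm 6 F 2 v v = 0 := hUV.uu _ _
  have hw : hermForm 6 F 2 w w = 0 := hUV.uu _ _
  have huv : hermForm 6 F 2 u v = 0 := hUV.uu _ _
  have huw : hermForm 6 F 2 u w = 0 := hUV.uu _ _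
  have hvw : hermForm 6 F 2 v w = 0 := hUV.uu _ _
  have e1 : u = (1 : F) • u + (0 : F) • v + (0 : F) • w := by simp
  have e2 : v = (0 : F) • u + (1 : F) • v + (0 : F) • w := by simp
  have e3 : w = (0 : F) • u + (0 : F) • v + (1 : F) • w := by simp
  have n1 : u ≠ 0 := hli.ne (by simp) e1
  have n2 : v ≠ 0 := hli.ne (by simp) e2
  have n3 : w ≠ 0 := hli.ne (by simp) e3
  have m1 := Δ.pt_mem n1 hu
  have m2 := Δ.pt_mem n2 hv
  have m3 := Δ.pt_mem n3 hw
  have D12 := (Δ.pt_ne_iff n1 hu n2 hv).2 (hli.np (by simp) e1 e2)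
  have D13 := (Δ.pt_ne_iff n1 hu n3 hw).2 (hli.np (by simp) e1 e3)
  have D23 := (Δ.pt_ne_iff n2 hv n3 hw).2 (hli.np (by simp) e2 e3)
  obtain ⟨y3, y4, y5, hhex, huniq⟩ := h.exists_hexad m1.1 (b := Δ.pt v) (c := Δ.pt w)
    ⟨m2.1, D12.symm, (Δ.commute_pt n1 hu n2 hv).2 huv⟩ ⟨m3.1, D13.symm, (Δ.commute_pt n1 hu n3 hw).2 huw⟩
    D23 ((Δ.commute_pt n2 hv n3 hw).2 hvw)
  have key : ∀ α β : F, α ≠ 0 → β ≠ 0 → Δ.pt (u + α • v + β • w) = y3 ∨ Δ.pt (u + α • v + β • w) = y4 ∨
      Δ.pt (u + α • v + β • w) = y5 := by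
    intro α β hα hβ
    have hv' := herm_smul_self hv α
    have huv' : hermForm 6 F 2 u (α • v) = 0 := by rw [hermForm_smul_right, huv, mul_zero]
    have hvw' : hermForm 6 F 2 (α • v) w = 0 := by rw [hermForm_smul_left, hvw, mul_zero]
    have h1 := hyperoval_c h hd Δ (fun l k1 k2 k3 k4 => hcon l k1 k2 k3 k4)
      (hli.smul hα) hu hv' hw huv' huw hvw' hω hβ
    rw [Δ.pt_smul n2 hv hα] at h1
    exact huniq _ _ _ h1
  have hne : ∀ α β α' β' : F, α ≠ 0 → β ≠ 0 → α' ≠ 0 → β' ≠ 0 → ¬ (α = α' ∧ β = β') →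
      Δ.pt (u + α • v + β • w) ≠ Δ.pt (u + α' • v + β' • w) := by
    intro α β α' β' h1 h2 h3 h4 h5
    have f1 : u + α • v + β • w = (1 : F) • u + α • v + β • w := by rw [one_smul]
    have f2 : u + α' • v + β' • w = (1 : F) • u + α' • v + β' • w := by rw [one_smul]
    rw [Δ.pt_ne_iff (hli.ne (by simp) f1) (herm_comb hF hu hv hw huv huw hvw f1 f1) (hli.ne (by simp) f2)
      (herm_comb hF hu hv hw huv huw hvw f2 f2)]
    refine hli.np ?_ f1 f2
    intro c k1 k2 k3
    rw [mul_one] at k1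
    rw [← k1, one_mul] at k2 k3
    exact h5 ⟨k2.symm, k3.symm⟩
  have a1 := key 1 1 one_ne_zero one_ne_zero
  have a2 := key 1 ω one_ne_zero hω0
  have a3 := key 1 (ω ^ 2) one_ne_zero hω2
  have a4 := key ω 1 hω0 one_ne_zero
  have b12 := hne 1 1 1 ω one_ne_zero one_ne_zero one_ne_zero hω0 (fun k => hω1 k.2.symm)
  have b13 := hne 1 1 1 (ω ^ 2) one_ne_zero one_ne_zero one_ne_zero hω2 (fun k => hω3 k.2.symm)
  have b14 := hne 1 1 ω 1 one_ne_zero one_ne_zero hω0 one_ne_zero (fun k => hω1 k.1.symm)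
  have b23 := hne 1 ω 1 (ω ^ 2) one_ne_zero hω0 one_ne_zero hω2 (fun k => hω4 k.2)
  have b24 := hne 1 ω ω 1 one_ne_zero hω0 hω0 one_ne_zero (fun k => hω1 k.1.symm)
  have b34 := hne 1 (ω ^ 2) ω 1 one_ne_zero hω2 hω0 one_ne_zero (fun k => hω1 k.1.symm)
  rcases a1 with a1 | a1 | a1 <;> rcases a2 with a2 | a2 | a2 <;> rcases a3 with a3 | a3 | a3 <;>
    rcases a4 with a4 | a4 | a4 <;>
    first
      | exact b12 (a1.trans a2.symm)
      | exact b13 (a1.trans a3.symm)
      | exact b14 (a1.trans a4.symm)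
      | exact b23 (a2.trans a3.symm)
      | exact b24 (a2.trans a4.symm)
      | exact b34 (a3.trans a4.symm)


end six

/-! ### Double covers -/

section cover

variable {H P : Type*} [Group H] [Group P] {z : H}

/-- A double cover. -/
structure DC (φ : H →* P) (z : H) : Prop where
  cen : ∀ h, z * h = h * z
  sq : z * z = 1
  ne : z ≠ 1
  surj : Function.Surjective φ
  ker : ∀ h, φ h = 1 → h = 1 ∨ h = z
  phz : φ z = 1

variable {φ : H →* P}

namespace DC

theorem cen' (D : DC φ z) {c : H} (hc : φ c = 1) (h : H) : c * h = h * c := by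
  rcases D.ker c hc with rfl | rfl
  · rw [one_mul, mul_one]
  · exact D.cen h

theorem sq' (D : DC φ z) {c : H} (hc : φ c = 1) : c * c = 1 := by
  rcases D.ker c hc with rfl | rfl
  · rw [one_mul]
  · exact D.sq

theorem exists_c (D : DC φ z) {a b : H} (h : φ a = φ b) : ∃ c, φ c = 1 ∧ a = b * c := by
  refine ⟨b⁻¹ * a, ?_, ?_⟩
  · rw [map_mul, map_inv, h, inv_mul_cancel]
  · rw [mul_inv_cancel_left]

/-- squares and commutators are invariant -/
theorem move (D : DC φ z) {a b a' b' : H} (g : P) (h1 : φ a' = g * φ a * g⁻¹) (h2 : φ b' = g * φ b * g⁻¹)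
    (haa : φ a * φ a = 1) (hab : Commute (φ a) (φ b)) :
    a' * a' = a * a ∧ a' * b' * a'⁻¹ * b'⁻¹ = a * b * a⁻¹ * b⁻¹ := by
  obtain ⟨h, rfl⟩ := D.surj g
  rw [← map_inv, ← map_mul, ← map_mul] at h1 h2
  obtain ⟨c, hc, rfl⟩ := D.exists_c h1
  obtain ⟨c', hc', rfl⟩ := D.exists_c h2
  have haa : φ (a * a) = 1 := by rw [map_mul, haa]
  have hab : φ (a * b * a⁻¹ * b⁻¹) = 1 := by
    rw [map_mul, map_mul, map_mul, map_inv, map_inv, hab.eq, mul_inv_cancel_right, mul_inv_cancel]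
  constructor
  · calc h * a * h⁻¹ * c * (h * a * h⁻¹ * c) = h * a * h⁻¹ * (c * (h * a * h⁻¹)) * c := by
          simp only [mul_assoc]
      _ = h * a * h⁻¹ * ((h * a * h⁻¹) * c) * c := by rw [D.cen' hc]
      _ = h * (a * a) * h⁻¹ * (c * c) := by group
      _ = a * a := by rw [D.sq' hc, mul_one, ← D.cen' haa h, mul_inv_cancel_right]
  · have e1 : (h * a * h⁻¹ * c) * (h * b * h⁻¹ * c') * (h * a * h⁻¹ * c)⁻¹ * (h * b * h⁻¹ * c')⁻¹ =
        h * (a * b * a⁻¹ * b⁻¹) * h⁻¹ := by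
      have k1 : ∀ x, c * x = x * c := D.cen' hc
      have k2 : ∀ x, c' * x = x * c' := D.cen' hc'
      calc (h * a * h⁻¹ * c) * (h * b * h⁻¹ * c') * (h * a * h⁻¹ * c)⁻¹ * (h * b * h⁻¹ * c')⁻¹
          = (h * a * h⁻¹) * (c * (h * b * h⁻¹ * c')) * (c⁻¹ * (h * a * h⁻¹)⁻¹) *
              (c'⁻¹ * (h * b * h⁻¹)⁻¹) := by group
        _ = (h * a * h⁻¹) * ((h * b * h⁻¹ * c') * c) * (c⁻¹ * (h * a * h⁻¹)⁻¹) *
              (c'⁻¹ * (h * b * h⁻¹)⁻¹) := by rw [k1]
        _ = (h * a * h⁻¹) * (h * b * h⁻¹) * (c' * (h * a * h⁻¹)⁻¹) *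
              (c'⁻¹ * (h * b * h⁻¹)⁻¹) := by group
        _ = (h * a * h⁻¹) * (h * b * h⁻¹) * ((h * a * h⁻¹)⁻¹ * c') *
              (c'⁻¹ * (h * b * h⁻¹)⁻¹) := by rw [k2]
        _ = h * (a * b * a⁻¹ * b⁻¹) * h⁻¹ := by group
    rw [e1, ← D.cen' hab h, mul_inv_cancel_right]

/-- the square of a product of a list -/
theorem sq_prod {s κ : H} (hκ : ∀ x, κ * x = x * κ) (hκκ : κ * κ = 1) (L : List H)
    (h1 : ∀ x ∈ L, x * x = s) (h2 : L.Pairwise fun x y => x * y = y * x * κ) :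
    L.prod * L.prod = s ^ L.length * κ ^ (L.length.choose 2) := by
  have hκp : ∀ n : ℕ, ∀ x, κ ^ n * x = x * κ ^ n := by
    intro n x
    exact ((Commute.pow_left (show Commute κ x from hκ x) n)).eq
  have com : ∀ (L : List H) (x : H), (∀ y ∈ L, x * y = y * x * κ) →
      L.prod * x = x * L.prod * κ ^ L.length := by
    intro L
    induction L with
    | nil => intro x _; simp
    | cons y L ih =>
      intro x hx
      have h3 : y * x = x * y * κ := by
        rw [hx y List.mem_cons_self, mul_assoc, hκκ, mul_one]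
      rw [List.prod_cons, mul_assoc, ih x (fun y hy => hx y (List.mem_cons_of_mem _ hy)),
        List.length_cons, pow_succ']
      calc y * (x * L.prod * κ ^ L.length) = (y * x) * L.prod * κ ^ L.length := by
            simp only [mul_assoc]
        _ = x * y * (κ * L.prod) * κ ^ L.length := by rw [h3]; simp only [mul_assoc]
        _ = x * (y * L.prod) * (κ * κ ^ L.length) := by rw [hκ]; simp only [mul_assoc]
  induction L with
  | nil => simp
  | cons x L ih =>
    rw [List.pairwise_cons] at h2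
    have ih' := ih (fun y hy => h1 y (List.mem_cons_of_mem _ hy)) h2.2
    rw [List.prod_cons, List.length_cons, Nat.choose_succ_succ' L.length 1, Nat.choose_one_right, pow_succ',
      pow_add]
    calc x * L.prod * (x * L.prod) = x * (L.prod * x) * L.prod := by simp only [mul_assoc]
      _ = x * (x * L.prod * κ ^ L.length) * L.prod := by rw [com L x h2.1]
      _ = x * x * (L.prod * (κ ^ L.length * L.prod)) := by simp only [mul_assoc]
      _ = x * x * (L.prod * L.prod * κ ^ L.length) := by rw [hκp]; simp only [mul_assoc]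
      _ = s * (s ^ L.length * κ ^ (L.length.choose 2) * κ ^ L.length) := by
        rw [ih', h1 x List.mem_cons_self]
      _ = s * (s ^ L.length * (κ ^ (L.length.choose 2) * κ ^ L.length)) := by simp only [mul_assoc]
      _ = s * (s ^ L.length * (κ ^ L.length * κ ^ (L.length.choose 2))) := by rw [hκp]
      _ = _ := by simp only [mul_assoc]

/-- lifts of a list -/
theorem exists_list (D : DC φ z) (l : List P) : ∃ L : List H, L.map φ = l := by
  induction l with
  | nil => exact ⟨[], rfl⟩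
  | cons a l ih =>
    obtain ⟨L, rfl⟩ := ih
    obtain ⟨x, rfl⟩ := D.surj a
    exact ⟨x :: L, rfl⟩

variable {E : Set P} [Finite P]

/-- the constants of a double cover of a group of type M(22) -/
theorem const (D : DC φ z) (hE : H22 E) {a b : H} (ha : φ a ∈ E) (hb : φ b ∈ perp E (φ a)) {x y : H}
    (hx : φ x ∈ E) (hy : φ y ∈ perp E (φ x)) :
    x * x = a * a ∧ x * y * x⁻¹ * y⁻¹ = a * b * a⁻¹ * b⁻¹ := by
  obtain ⟨e, he, hae⟩ := hE.exists_nc' ha
  obtain ⟨g, hg1, hg2⟩ := exists_conj_pair hE.cls hE.irr ha hb hx hy he hae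
  exact D.move g hg1.symm hg2.symm (ThreeTransp.mul_self hE.cls.1 ha) hb.2.2

theorem sq_const (D : DC φ z) (hE : H22 E) {a b : H} (ha : φ a ∈ E) (hb : φ b ∈ perp E (φ a)) {x : H}
    (hx : φ x ∈ E) : x * x = a * a := by
  obtain ⟨y', hy'⟩ := hE.perp_nonempty hx
  obtain ⟨y, rfl⟩ := D.surj y'
  exact (D.const hE ha hb hx hy').1

/-- Lifts of commuting members commute, and lifts of members are involutions. -/
theorem lifts (D : DC φ z) (hE : H22 E) :
    (∀ x y, φ x ∈ E → φ y ∈ E → Commute (φ x) (φ y) → Commute x y) ∧ ∀ x, φ x ∈ E → x * x = 1 := by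
  obtain ⟨d, hd, -⟩ := hE.cls.2.1
  obtain ⟨l, hnd, hlen, hmem, hcomm, hprod⟩ := exists_six_c hE hd
  obtain ⟨a', hb'⟩ := hE.perp_nonempty hd
  obtain ⟨a, rfl⟩ := D.surj d
  obtain ⟨b, rfl⟩ := D.surj a'
  obtain ⟨κ, hκ⟩ : ∃ κ, κ = a * b * a⁻¹ * b⁻¹ := ⟨_, rfl⟩
  obtain ⟨s, hs⟩ : ∃ s, s = a * a := ⟨_, rfl⟩
  have φκ : φ κ = 1 := by
    rw [hκ, map_mul, map_mul, map_mul, map_inv, map_inv, hb'.2.2.eq, mul_inv_cancel_right, mul_inv_cancel]
  have φs : φ s = 1 := by rw [hs, map_mul]; exact ThreeTransp.mul_self hE.cls.1 hd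
  have C : ∀ x y, φ x ∈ E → φ y ∈ E → Commute (φ x) (φ y) → φ x ≠ φ y → x * y = y * x * κ := by
    intro x y hx hy hc hne
    have h1 := (D.const hE hd hb' hx ⟨hy, Ne.symm hne, hc⟩).2
    rw [← hκ] at h1
    rw [mul_assoc, ← D.cen' φκ, ← h1]
    have h2 : φ (x * y * x⁻¹ * y⁻¹) = 1 := by rw [h1, φκ]
    calc x * y = (x * y * x⁻¹ * y⁻¹) * (y * x) := by group
      _ = y * ((x * y * x⁻¹ * y⁻¹) * x) := by
        rw [← mul_assoc, D.cen' h2 y, mul_assoc]
  have S : ∀ x, φ x ∈ E → x * x = s := by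
    intro x hx
    rw [hs]; exact D.sq_const hE hd hb' hx
  have sqL : ∀ L : List H, (L.map φ).Nodup → (∀ y ∈ L.map φ, y ∈ E) →
      (∀ x ∈ L.map φ, ∀ y ∈ L.map φ, Commute x y) → (L.map φ).prod = 1 →
      s ^ L.length * κ ^ (L.length.choose 2) = 1 := by
    intro L h1 h2 h3 h4
    have hm : ∀ x ∈ L, φ x ∈ L.map φ := fun x hx => List.mem_map_of_mem hx
    have hsq := sq_prod (s := s) (D.cen' φκ) (D.sq' φκ) L (fun x hx => S x (h2 _ (hm x hx))) (by
      have h5 : L.Pairwise (fun a b => φ a ≠ φ b) := by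
        rw [List.Nodup, List.pairwise_map] at h1
        exact h1
      refine h5.imp_of_mem ?_
      intro x y hx hy hxy
      exact C x y (h2 _ (hm x hx)) (h2 _ (hm y hy)) (h3 _ (hm x hx) _ (hm y hy)) hxy)
    rw [← hsq]
    apply D.sq'
    rw [map_list_prod, h4]
  have hκκ : κ * κ = 1 := D.sq' φκ
  have hss : s * s = 1 := D.sq' φs
  -- the hexad
  have hκ1 : κ = 1 := by
    obtain ⟨l0, l1, l', rfl⟩ : ∃ x y l', l = x :: y :: l' := by
      rcases l with _ | ⟨x, _ | ⟨y, l'⟩⟩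
      · simp at hlen
      · simp at hlen
      · exact ⟨x, y, l', rfl⟩
    have h01 : l0 ≠ l1 := by
      rw [List.nodup_cons] at hnd
      rintro rfl
      exact hnd.1 List.mem_cons_self
    obtain ⟨y3, y4, y5, hhex, -⟩ := hE.exists_hexad hd (hmem l0 (by simp)) (hmem l1 (by simp)) h01
      (hcomm l0 (by simp) l1 (by simp))
    obtain ⟨L, hL⟩ := D.exists_list [φ a, l0, l1, y3, y4, y5]
    have h6 := sqL L (by rw [hL]; exact hhex.nodup) (by rw [hL]; exact hhex.mem) (by rw [hL]; exact hhex.comm)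
      (by rw [hL]; exact hhex.prod)
    have hlen6 : L.length = 6 := by
      have := congrArg List.length hL
      simpa using this
    rw [hlen6] at h6
    have e1 : Nat.choose 6 2 = 15 := by decide
    have e2 : s ^ 6 = 1 := by
      calc s ^ 6 = (s * s) ^ 3 := by rw [← pow_two, ← pow_mul]
        _ = 1 := by rw [hss, one_pow]
    have e3 : κ ^ 15 = κ := by
      calc κ ^ 15 = (κ * κ) ^ 7 * κ := by rw [← pow_two, ← pow_mul, ← pow_succ]
        _ = κ := by rw [hκκ, one_pow, one_mul]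
    rwa [e1, e2, e3, one_mul] at h6
  have hs1 : s = 1 := by
    obtain ⟨L, hL⟩ := D.exists_list (φ a :: l)
    have h7 := sqL L (by
        rw [hL, List.nodup_cons]
        exact ⟨fun h => (hmem _ h).2.1 rfl, hnd⟩) (by
        rw [hL]
        intro y hy
        rcases List.mem_cons.1 hy with rfl | hy
        · exact hd
        · exact (hmem y hy).1) (by
        rw [hL]
        intro x hx y hy
        rcases List.mem_cons.1 hx with rfl | hx <;> rcases List.mem_cons.1 hy with rfl | hy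
        · exact Commute.refl _
        · exact (hmem y hy).2.2
        · exact (hmem x hx).2.2.symm
        · exact hcomm x hx y hy) (by
        rw [hL, List.prod_cons, hprod]
        exact ThreeTransp.mul_self hE.cls.1 hd)
    have hlen7 : L.length = 7 := by
      have := congrArg List.length hL
      simp only [List.length_map, List.length_cons, hlen] at this
      exact this
    rw [hlen7, hκ1, one_pow, mul_one] at h7
    calc s = (s * s) ^ 3 * s := by rw [hss, one_pow, one_mul]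
      _ = s ^ 7 := by rw [← pow_two, ← pow_mul, ← pow_succ]
      _ = 1 := h7
  refine ⟨?_, fun x hx => (S x hx).trans hs1⟩
  intro x y hx hy hc
  by_cases hxy : φ x = φ y
  · obtain ⟨c, hc', rfl⟩ := D.exists_c hxy
    have := D.cen' hc' y
    rw [commute_iff_eq, mul_assoc, this]
  · have := C x y hx hy hc hxy
    rwa [hκ1, mul_one] at this

/-- **Every involution lifts to an involution.** -/
theorem exists_lift (D : DC φ z) (hE : H22 E) {e : P} (he : e * e = 1) :
    ∃ y : H, y * y = 1 ∧ φ y = e := by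
  by_cases he1 : e = 1
  · exact ⟨1, by rw [one_mul], by rw [he1, map_one]⟩
  obtain ⟨m, -, -, l, hnd, hlen, hmem, hcomm, hprod⟩ := (FiF4.core22 hE).exists_fact he he1
  obtain ⟨L, hL⟩ := D.exists_list l
  obtain ⟨h1, h2⟩ := D.lifts hE
  refine ⟨L.prod, ?_, by rw [map_list_prod, hL, hprod]⟩
  have hm : ∀ x ∈ L, φ x ∈ l := fun x hx => by rw [← hL]; exact List.mem_map_of_mem hx
  have := sq_prod (s := (1 : H)) (κ := 1) (fun x => by rw [one_mul, mul_one]) (one_mul 1) L
    (fun x hx => h2 x (hmem _ (hm x hx))) (by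
      rw [List.pairwise_iff_forall_sublist]
      intro x y hxy
      rw [mul_one]
      have hx : x ∈ L := hxy.subset (by simp)
      have hy : y ∈ L := hxy.subset (by simp)
      exact h1 x y (hmem _ (hm x hx)) (hmem _ (hm y hy)) (hcomm _ (hm x hx) _ (hm y hy)))
  rwa [one_pow, one_pow, one_mul] at this

end DC

/-- Groups of type M(22) and the setting `H22`. -/
theorem h22_of_irred {E : Set P} [Finite P] (hcls : Cfsg.IsThreeTranspositionClass E) (hirr : Irred E)
    (h22 : Cfsg.IsOfTypeM22 P E) : H22 E where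
  cls := hcls
  irr := hirr
  typ := h22
  conn := by
    obtain ⟨d, hd, -⟩ := hcls.2.1
    have hne : Nonempty E := ⟨⟨d, hd⟩⟩
    obtain ⟨a, ha, b, hb, hab⟩ := perp_nc hcls h22 hd
    have adj : ∀ {y z : P} (hy : y ∈ E) (hz : z ∈ E), y ≠ z → Commute y z →
        (Cfsg.commutingGraph E).Adj ⟨_, hy⟩ ⟨_, hz⟩ := by
      intro y z hy hz hne hc
      rw [Cfsg.commutingGraph, SimpleGraph.fromRel_adj]
      exact ⟨fun h => hne (congrArg Subtype.val h), Or.inl hc⟩
    refine ⟨fun u v => ?_⟩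
    obtain ⟨u, hu⟩ := u
    obtain ⟨v, hv⟩ := v
    by_cases huv : u = v
    · subst huv; exact SimpleGraph.Reachable.refl _
    by_cases hcom : Commute u v
    · exact (adj hu hv huv hcom).reachable
    · obtain ⟨g, hg⟩ := exists_conj hcls ha.1 hu
      have h1 : ¬ Commute u (g * b * g⁻¹) := by rw [← hg, commute_conj_iff]; exact hab
      obtain ⟨k, hk1, hk2⟩ := transitive_noncommuting hcls hirr hd ha.1 ha.2.1.symm ha.2.2 hu
        (conj_mem hcls hb.1 g) hv h1 hcom
      have e1 : (k * g) * a * (k * g)⁻¹ = u := by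
        calc (k * g) * a * (k * g)⁻¹ = k * (g * a * g⁻¹) * k⁻¹ := by group
          _ = u := by rw [hg, hk1]
      have e2 : (k * g) * b * (k * g)⁻¹ = v := by
        calc (k * g) * b * (k * g)⁻¹ = k * (g * b * g⁻¹) * k⁻¹ := by group
          _ = v := hk2
      have hw := conj_mem hcls hd (k * g)
      have hwa : Commute ((k * g) * d * (k * g)⁻¹) u := by
        rw [← e1, commute_conj_iff]; exact ha.2.2
      have hwb : Commute ((k * g) * d * (k * g)⁻¹) v := by
        rw [← e2, commute_conj_iff]; exact hb.2.2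
      by_cases hwu : (k * g) * d * (k * g)⁻¹ = u
      · rw [hwu] at hwb
        exact absurd hwb hcom
      by_cases hwv : (k * g) * d * (k * g)⁻¹ = v
      · rw [hwv] at hwa
        exact absurd hwa.symm hcom
      exact ((adj hw hu hwu hwa).reachable.symm).trans (adj hw hv hwv hwb).reachable

/-- quotients of quasisimple groups by central subgroups -/
theorem simple_of_quasi {C : Type*} [Group C] (hq : Cfsg.IsQuasisimple C) (N : Subgroup C) [N.Normal]
    (hN : N ≤ Subgroup.center C) (hZ : Subgroup.center (C ⧸ N) = ⊥) :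
    IsSimpleGroup (commutator (C ⧸ N)) := by
  have hNZ : N = Subgroup.center C := by
    apply le_antisymm hN
    intro c hc
    have h1 : (QuotientGroup.mk c : C ⧸ N) ∈ Subgroup.center (C ⧸ N) := by
      rw [Subgroup.mem_center_iff]
      intro g
      obtain ⟨g, rfl⟩ := QuotientGroup.mk_surjective g
      rw [Subgroup.mem_center_iff] at hc
      rw [← QuotientGroup.mk_mul, ← QuotientGroup.mk_mul, hc g]
    rw [hZ, Subgroup.mem_bot] at h1
    exact (QuotientGroup.eq_one_iff c).1 h1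
  have hs : IsSimpleGroup (C ⧸ N) := by
    have := hq.2
    exact (QuotientGroup.quotientMulEquivOfEq hNZ).isSimpleGroup
  have hp : commutator (C ⧸ N) = ⊤ := by
    have h1 : commutator C = ⊤ := hq.1.commutator_eq_top
    have h2 : (commutator C).map (QuotientGroup.mk' N) = commutator (C ⧸ N) := by
      rw [commutator_def, commutator_def, Subgroup.map_commutator, Subgroup.map_top_of_surjective _
        (QuotientGroup.mk'_surjective _)]
    rw [← h2, h1, Subgroup.map_top_of_surjective _ (QuotientGroup.mk'_surjective _)]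
  rw [hp]
  exact (Subgroup.topEquiv (G := C ⧸ N)).isSimpleGroup

theorem h22_of_quasi {C : Type*} [Group C] [Finite C] (hq : Cfsg.IsQuasisimple C) (N : Subgroup C) [N.Normal]
    (hN : N ≤ Subgroup.center C) {E : Set (C ⧸ N)} (hE : Cfsg.IsThreeTranspositionClass E)
    (h22 : Cfsg.IsOfTypeM22 (C ⧸ N) E) : H22 E :=
  h22_of_irred hE (irred_of_simple hE (simple_of_quasi hq N hN h22.1)) h22

end cover

end Cfsg.Agent.UDbl
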