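import Cfsg.Agent.Fi22.Cls
import Cfsg.Agent.Fi22.Vec
import Cfsg.Agent.USub.NDa

/-!
# Involutions of `PSU_6(F4)` lift to involutions of every double cover
-/

set_option autoImplicit false
set_option linter.unusedSectionVars false

namespace Cfsg.Agent.UDbl

open Finset Matrix Module Cfsg.Agent.Uni Cfsg.Agent.Fi22

variable {F : Type*} [Field F] [Fintype F]

/-- the relation between the five transvections of a totally isotropic line -/
theorem tv_line {n : ℕ} (hF : Fintype.card F = 2 ^ 2) {ω : F} (hω : ω ^ 2 = ω + 1) {u v : Fin n → F}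
    (huu : hermForm n F 2 u u = 0) (hvv : hermForm n F 2 v v = 0) (huv : hermForm n F 2 u v = 0) :
    tv u * (tv v * (tv (u + v) * (tv (u + ω • v) * tv (u + ω ^ 2 • v)))) = (1 : SU n F 2) := by
  have hvu : hermForm n F 2 v u = 0 := (hermForm_eq_zero_comm hF).1 huv
  have hl : ∀ c : F, hermForm n F 2 (u + c • v) (u + c • v) = 0 := by
    intro c
    simp only [hermForm_add_left, hermForm_add_right hF, hermForm_smul_left, hermForm_smul_right,
      huu, hvv, huv, hvu, mul_zero, add_zero]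
  have hl1 : hermForm n F 2 (u + v) (u + v) = 0 := by simpa using hl 1
  apply act_ext
  intro x
  rw [act_mul, act_mul, act_mul, act_mul, tv_act hF huu, tv_act hF hvv, tv_act hF hl1,
    tv_act hF (hl ω), tv_act hF (hl (ω ^ 2)), act_one]
  simp only [hermForm_add_left, hermForm_add_right hF, hermForm_smul_left, hermForm_smul_right,
      huu, hvv, huv, hvu, mul_zero, add_zero]
  obtain ⟨a, ha⟩ : ∃ a, a = hermForm n F 2 x u := ⟨_, rfl⟩
  obtain ⟨b, hb⟩ : ∃ b, b = hermForm n F 2 x v := ⟨_, rfl⟩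
  rw [← ha, ← hb]
  have h2 : (2 : F) = 0 := two_eq_zero' hF
  have e4 : (ω ^ 2) ^ 2 = ω := by
    have : (ω ^ 2) ^ 2 = (ω + 1) ^ 2 := by rw [hω]
    rw [this, add_sq, hω]
    linear_combination (ω + 1) * h2
  rw [e4, hω]
  funext i
  simp only [Pi.add_apply, Pi.smul_apply, smul_eq_mul]
  linear_combination (a * ω * v i + 2 * a * u i + a * v i + ω * b * u i + ω * b * v i +
    ω ^ 2 * b * v i + b * u i + b * v i) * h2

/-- `SU_6(F4)` is transitive on independent totally isotropic pairs -/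
theorem exists_SU_pair (hF : Fintype.card F = 2 ^ 2) {w v : Fin 3 → Fin 6 → F} (hb : HB w v)
    {x y : Fin 6 → F} (hli : LinearIndependent F ![x, y]) (hxx : hermForm 6 F 2 x x = 0)
    (hyy : hermForm 6 F 2 y y = 0) (hxy : hermForm 6 F 2 x y = 0) :
    ∃ g : SU 6 F 2, act g (w 0) = x ∧ act g (w 1) = y := by
  have hyx : hermForm 6 F 2 y x = 0 := (hermForm_eq_zero_comm hF).1 hxy
  obtain ⟨ω, hω⟩ := exists_omega hF
  have hli' : LinearIndependent F ![w 0, w 1] := by
    have h := hb.li.comp (![0, 1] : Fin 2 → Fin 3) (by decide)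
    convert h using 1
    funext i
    fin_cases i <;> rfl
  obtain ⟨g, hg⟩ := exists_GU_of_family hF hli' hli (by
    intro i j
    fin_cases i <;> fin_cases j
    · exact (hb.uu 0 0).trans hxx.symm
    · exact (hb.uu 0 1).trans hxy.symm
    · exact (hb.uu 1 0).trans hyx.symm
    · exact (hb.uu 1 1).trans hyy.symm)
  have hg0 : gact g (w 0) = x := hg 0
  have hg1 : gact g (w 1) = y := hg 1
  obtain ⟨k, hk⟩ := USub.exists_SU_adjust hF g (e := gact g (w 2 + ω • v 2)) (by
    rw [gact_form]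
    simp only [hermForm_add_left, hermForm_add_right hF, hermForm_smul_left, hermForm_smul_right,
      hb.uu, hb.vv, hb.uv, hb.vu hF, mul_zero, add_zero, if_true, mul_one, zero_add]
    rw [hω]
    have h2 : (2 : F) = 0 := two_eq_zero' hF
    intro h
    have : (1 : F) = 0 := by linear_combination h - ω * h2
    exact one_ne_zero this)
  have key : ∀ i : Fin 3, i ≠ 2 → act k (w i) = gact g (w i) := by
    intro i hi
    refine hk _ ?_
    rw [gact_form, hermForm_add_right hF, hermForm_smul_right, hb.uu, hb.uv, if_neg hi, mul_zero,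
      add_zero]
  exact ⟨k, by rw [key 0 (by decide), hg0], by rw [key 1 (by decide), hg1]⟩

section cover

variable {H : Type*} [Group H] {z : H}

/-- A double cover of `PSU_6(F4)`. -/
structure Dbl (φ : H →* PSU 6 F 2) (z : H) : Prop where
  cen : ∀ h, z * h = h * z
  sq : z * z = 1
  ne : z ≠ 1
  surj : Function.Surjective φ
  ker : ∀ h, φ h = 1 → h = 1 ∨ h = z
  phz : φ z = 1

variable {φ : H →* PSU 6 F 2}

theorem Dbl.cen' (D : Dbl φ z) {c : H} (hc : φ c = 1) (h : H) : c * h = h * c := by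
  rcases D.ker c hc with rfl | rfl
  · rw [one_mul, mul_one]
  · exact D.cen h

theorem Dbl.sq' (D : Dbl φ z) {c : H} (hc : φ c = 1) : c * c = 1 := by
  rcases D.ker c hc with rfl | rfl
  · rw [one_mul]
  · exact D.sq

/-- two lifts of the same element -/
theorem Dbl.exists_c (D : Dbl φ z) {a b : H} (h : φ a = φ b) : ∃ c, φ c = 1 ∧ a = b * c := by
  refine ⟨b⁻¹ * a, ?_, ?_⟩
  · rw [map_mul, map_inv, h, inv_mul_cancel]
  · rw [mul_inv_cancel_left]

variable (hF : Fintype.card F = 2 ^ 2)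
include hF

/-- squares and commutators are invariant -/
theorem Dbl.move (D : Dbl φ z) {u v : Fin 6 → F} (huu : hermForm 6 F 2 u u = 0)
    (hvv : hermForm 6 F 2 v v = 0) (huv : hermForm 6 F 2 u v = 0) (hu0 : u ≠ 0) (hv0 : v ≠ 0)
    (g : SU 6 F 2) {a b a' b' : H} (ha : φ a = pr (tv u)) (hb : φ b = pr (tv v))
    (ha' : φ a' = pr (tv (act g u))) (hb' : φ b' = pr (tv (act g v))) :
    a' * a' = a * a ∧ a' * b' * a'⁻¹ * b'⁻¹ = a * b * a⁻¹ * b⁻¹ := by
  obtain ⟨h, hh⟩ := D.surj (pr g)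
  have h1 : φ a' = φ (h * a * h⁻¹) := by
    rw [ha', ← tv_conj hF huu, map_mul, map_mul, map_inv, hh, ha]
    rfl
  have h2 : φ b' = φ (h * b * h⁻¹) := by
    rw [hb', ← tv_conj hF hvv, map_mul, map_mul, map_inv, hh, hb]
    rfl
  obtain ⟨c, hc, rfl⟩ := D.exists_c h1
  obtain ⟨c', hc', rfl⟩ := D.exists_c h2
  have haa : φ (a * a) = 1 := by
    rw [map_mul, ha]
    change pr (tv u * tv u) = 1
    rw [tv_mul_self hF huu]
    rfl
  have hab : φ (a * b * a⁻¹ * b⁻¹) = 1 := by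
    rw [map_mul, map_mul, map_mul, map_inv, map_inv, ha, hb]
    change pr (tv u * tv v * (tv u)⁻¹ * (tv v)⁻¹) = 1
    rw [((commute_tv_iff hF hu0 hv0 huu hvv).2 huv).eq, mul_inv_cancel_right, mul_inv_cancel]
    rfl
  constructor
  · calc h * a * h⁻¹ * c * (h * a * h⁻¹ * c) = h * a * h⁻¹ * (c * (h * a * h⁻¹)) * c := by
          simp only [mul_assoc]
      _ = h * a * h⁻¹ * ((h * a * h⁻¹) * c) * c := by rw [D.cen' hc]
      _ = h * (a * a) * h⁻¹ * (c * c) := by group
      _ = a * a := by rw [D.sq' hc, mul_one, ← D.cen' haa h, mul_inv_cancel_right]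
  · have e1 : (h * a * h⁻¹ * c) * (h * b * h⁻¹ * c') * (h * a * h⁻¹ * c)⁻¹ * (h * b * h⁻¹ * c')⁻¹ =
        h * (a * b * a⁻¹ * b⁻¹) * h⁻¹ := by
      have k1 : ∀ x, c * x = x * c := D.cen' hc
      have k2 : ∀ x, c' * x = x * c' := D.cen' hc'
      calc (h * a * h⁻¹ * c) * (h * b * h⁻¹ * c') * (h * a * h⁻¹ * c)⁻¹ * (h * b * h⁻¹ * c')⁻¹
          = (h * a * h⁻¹) * (c * (h * b * h⁻¹ * c')) * (c⁻¹ * (h * a * h⁻¹)⁻¹) *
              (c'⁻¹ * (h * b * h⁻¹)⁻¹) := by group
        _ = (h * a * h⁻¹) * ((h * b * h⁻¹ * c') * c) * (c⁻¹ * (h * a * h⁻¹)⁻¹) *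
              (c'⁻¹ * (h * b * h⁻¹)⁻¹) := by rw [k1]
        _ = (h * a * h⁻¹) * (h * b * h⁻¹) * (c' * (h * a * h⁻¹)⁻¹) *
              (c'⁻¹ * (h * b * h⁻¹)⁻¹) := by group
        _ = (h * a * h⁻¹) * (h * b * h⁻¹) * ((h * a * h⁻¹)⁻¹ * c') *
              (c'⁻¹ * (h * b * h⁻¹)⁻¹) := by rw [k2]
        _ = h * (a * b * a⁻¹ * b⁻¹) * h⁻¹ := by group
    rw [e1, ← D.cen' hab h, mul_inv_cancel_right]

/-- The commutator of lifts of commuting transvections with independent centres, and the squares of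
lifts, are constant. -/
theorem Dbl.const (D : Dbl φ z) {w v : Fin 3 → Fin 6 → F} (hwv : HB w v) {a b : H}
    (ha : φ a = pr (tv (w 0))) (hb : φ b = pr (tv (w 1)))
    {x y : Fin 6 → F} (hli : LinearIndependent F ![x, y]) (hxx : hermForm 6 F 2 x x = 0)
    (hyy : hermForm 6 F 2 y y = 0) (hxy : hermForm 6 F 2 x y = 0) {a' b' : H}
    (ha' : φ a' = pr (tv x)) (hb' : φ b' = pr (tv y)) :
    a' * a' = a * a ∧ a' * b' * a'⁻¹ * b'⁻¹ = a * b * a⁻¹ * b⁻¹ := by
  obtain ⟨g, rfl, rfl⟩ := exists_SU_pair hF hwv hli hxx hyy hxy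
  exact D.move hF (hwv.uu 0 0) (hwv.uu 1 1) (hwv.uu 0 1) (hwv.li.ne_zero 0) (hwv.li.ne_zero 1) g
    ha hb ha' hb'

/-- Lifts of transvections are involutions, and they commute if the centres span a totally isotropic
line. -/
theorem Dbl.lifts (D : Dbl φ z) {x y : Fin 6 → F} (hli : LinearIndependent F ![x, y])
    (hxx : hermForm 6 F 2 x x = 0) (hyy : hermForm 6 F 2 y y = 0) (hxy : hermForm 6 F 2 x y = 0)
    {a' b' : H} (ha' : φ a' = pr (tv x)) (hb' : φ b' = pr (tv y)) :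
    a' * a' = 1 ∧ a' * b' = b' * a' := by
  obtain ⟨w, v, hwv⟩ := exists_HB hF
  obtain ⟨ω, hω⟩ := exists_omega hF
  have h2 : (2 : F) = 0 := two_eq_zero' hF
  -- the points of the line
  have hl : ∀ c : F, hermForm 6 F 2 (w 0 + c • w 1) (w 0 + c • w 1) = 0 := by
    intro c
    simp only [hermForm_add_left, hermForm_add_right hF, hermForm_smul_left, hermForm_smul_right,
      hwv.uu, mul_zero, add_zero]
  have hl2 : ∀ c : F, hermForm 6 F 2 (w 2) (w 0 + c • w 1) = 0 := by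
    intro c
    simp only [hermForm_add_right hF, hermForm_smul_right, hwv.uu, mul_zero, add_zero]
  have hlli : ∀ c : F, LinearIndependent F ![w 2, w 0 + c • w 1] := by
    intro c
    rw [LinearIndependent.pair_iff]
    intro s t hst
    have h1 : hermForm 6 F 2 (s • w 2 + t • (w 0 + c • w 1)) (v 2) = 0 := by
      rw [hst, hermForm_zero_left]
    have h3 : hermForm 6 F 2 (s • w 2 + t • (w 0 + c • w 1)) (v 0) = 0 := by
      rw [hst, hermForm_zero_left]
    simp only [hermForm_add_left, hermForm_smul_left, hwv.uv] at h1 h3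
    simp at h1 h3
    exact ⟨h1, h3⟩
  have hlli1 : LinearIndependent F ![w 2, w 1] := by
    rw [LinearIndependent.pair_iff]
    intro s t hst
    have h1 : hermForm 6 F 2 (s • w 2 + t • w 1) (v 2) = 0 := by
      rw [hst, hermForm_zero_left]
    have h3 : hermForm 6 F 2 (s • w 2 + t • w 1) (v 1) = 0 := by
      rw [hst, hermForm_zero_left]
    simp only [hermForm_add_left, hermForm_smul_left, hwv.uv] at h1 h3
    simp at h1 h3
    exact ⟨h1, h3⟩
  obtain ⟨a0, h0⟩ := D.surj (pr (tv (w 0)))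
  obtain ⟨a1, h1⟩ := D.surj (pr (tv (w 1)))
  obtain ⟨a2, h2'⟩ := D.surj (pr (tv (w 0 + w 1)))
  obtain ⟨a3, h3⟩ := D.surj (pr (tv (w 0 + ω • w 1)))
  obtain ⟨a4, h4⟩ := D.surj (pr (tv (w 0 + ω ^ 2 • w 1)))
  obtain ⟨b, hb⟩ := D.surj (pr (tv (w 2)))
  -- the constants
  have C := fun {x y : Fin 6 → F} (hli : LinearIndependent F ![x, y]) (hxx) (hyy) (hxy) {a' b' : H}
      (ha' : φ a' = pr (tv x)) (hb' : φ b' = pr (tv y)) =>
    D.const hF hwv h0 h1 (x := x) (y := y) hli hxx hyy hxy ha' hb'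
  obtain ⟨κ, hκ⟩ : ∃ κ, κ = a0 * a1 * a0⁻¹ * a1⁻¹ := ⟨_, rfl⟩
  obtain ⟨s, hs⟩ : ∃ s, s = a0 * a0 := ⟨_, rfl⟩
  rw [← hκ, ← hs] at C
  have φκ : φ κ = 1 := by
    rw [hκ, map_mul, map_mul, map_mul, map_inv, map_inv, h0, h1]
    change pr (tv (w 0) * tv (w 1) * (tv (w 0))⁻¹ * (tv (w 1))⁻¹) = 1
    rw [((commute_tv_iff hF (hwv.li.ne_zero 0) (hwv.li.ne_zero 1) (hwv.uu 0 0) (hwv.uu 1 1)).2
      (hwv.uu 0 1)).eq, mul_inv_cancel_right, mul_inv_cancel]
    rfl
  have φs : φ s = 1 := by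
    rw [hs, map_mul, h0]
    change pr (tv (w 0) * tv (w 0)) = 1
    rw [tv_mul_self hF (hwv.uu 0 0)]
    rfl
  have φp : φ (a0 * (a1 * (a2 * (a3 * a4)))) = 1 := by
    rw [map_mul, map_mul, map_mul, map_mul, h0, h1, h2', h3, h4]
    change pr (tv (w 0) * (tv (w 1) * (tv (w 0 + w 1) * (tv (w 0 + ω • w 1) *
      tv (w 0 + ω ^ 2 • w 1))))) = 1
    rw [tv_line hF hω (hwv.uu 0 0) (hwv.uu 1 1) (hwv.uu 0 1)]
    rfl
  -- commuting with `b`
  have toK : ∀ {x y : H}, x * y * x⁻¹ * y⁻¹ = κ → x * y = y * κ * x := by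
    intro x y h
    rw [← D.cen' φκ y, ← h]
    group
  have hw0 : LinearIndependent F ![w 2, w 0] := by
    have := hlli 0
    rwa [zero_smul, add_zero] at this
  have hw01 : LinearIndependent F ![w 2, w 0 + w 1] := by
    have := hlli 1
    rwa [one_smul] at this
  have hl1 : hermForm 6 F 2 (w 0 + w 1) (w 0 + w 1) = 0 := by
    have := hl 1
    rwa [one_smul] at this
  have hl21 : hermForm 6 F 2 (w 2) (w 0 + w 1) = 0 := by
    have := hl2 1
    rwa [one_smul] at this
  have b0 : b * a0 = a0 * κ * b := toK (C hw0 (hwv.uu 2 2) (hwv.uu 0 0) (hwv.uu 2 0) hb h0).2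
  have b1 : b * a1 = a1 * κ * b := toK (C hlli1 (hwv.uu 2 2) (hwv.uu 1 1) (hwv.uu 2 1) hb h1).2
  have b2 : b * a2 = a2 * κ * b := toK (C hw01 (hwv.uu 2 2) hl1 hl21 hb h2').2
  have b3 : b * a3 = a3 * κ * b := toK (C (hlli ω) (hwv.uu 2 2) (hl ω) (hl2 ω) hb h3).2
  have b4 : b * a4 = a4 * κ * b :=
    toK (C (hlli (ω ^ 2)) (hwv.uu 2 2) (hl (ω ^ 2)) (hl2 (ω ^ 2)) hb h4).2
  have hκκ : κ * κ = 1 := D.sq' φκ
  have hκ1 : κ = 1 := by
    have e1 : (a0 * (a1 * (a2 * (a3 * a4)))) * b = (a0 * (a1 * (a2 * (a3 * a4)))) * κ * b := by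
      have cK : ∀ x, κ * x = x * κ := D.cen' φκ
      calc (a0 * (a1 * (a2 * (a3 * a4)))) * b = b * (a0 * (a1 * (a2 * (a3 * a4)))) := D.cen' φp b
        _ = (b * a0) * (a1 * (a2 * (a3 * a4))) := by simp only [mul_assoc]
        _ = a0 * κ * ((b * a1) * (a2 * (a3 * a4))) := by rw [b0]; simp only [mul_assoc]
        _ = a0 * κ * (a1 * κ * ((b * a2) * (a3 * a4))) := by rw [b1]; simp only [mul_assoc]
        _ = a0 * κ * (a1 * κ * (a2 * κ * ((b * a3) * a4))) := by rw [b2]; simp only [mul_assoc]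
        _ = a0 * κ * (a1 * κ * (a2 * κ * (a3 * κ * (b * a4)))) := by rw [b3]; simp only [mul_assoc]
        _ = a0 * κ * (a1 * κ * (a2 * κ * (a3 * κ * (a4 * κ * b)))) := by rw [b4]
        _ = a0 * (κ * (a1 * (κ * (a2 * (κ * (a3 * (κ * (a4 * (κ * b))))))))) := by
          simp only [mul_assoc]
        _ = a0 * (a1 * (a2 * (a3 * (a4 * (κ * (κ * (κ * (κ * (κ * b))))))))) := by
          have f : ∀ x y, κ * (x * y) = x * (κ * y) := by
            intro x y
            rw [← mul_assoc, cK, mul_assoc]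
          simp only [f a1, f a2, f a3, f a4]
        _ = a0 * (a1 * (a2 * (a3 * (a4 * (κ * b))))) := by
          rw [← mul_assoc κ κ, hκκ, one_mul, ← mul_assoc κ κ, hκκ, one_mul]
        _ = _ := by simp only [mul_assoc]
    have e2 := mul_right_cancel e1
    exact (mul_eq_left.1 e2.symm)
  have toC : ∀ {x y : H}, x * y * x⁻¹ * y⁻¹ = κ → x * y = y * x := by
    intro x y h
    rw [toK h, hκ1, mul_one]
  -- squares
  have s1 : a1 * a1 = s := by
    have : LinearIndependent F ![w 1, w 2] := by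
      rw [LinearIndependent.pair_iff] at hlli1 ⊢
      intro s t hst
      have := hlli1 t s (by rw [add_comm]; exact hst)
      exact ⟨this.2, this.1⟩
    exact (C this (hwv.uu 1 1) (hwv.uu 2 2) (hwv.uu 1 2) h1 hb).1
  have sq_of : ∀ {x : Fin 6 → F} {a : H}, LinearIndependent F ![w 2, x] →
      hermForm 6 F 2 x x = 0 → hermForm 6 F 2 (w 2) x = 0 → φ a = pr (tv x) → a * a = s := by
    intro x a hlx hxx h2x hax
    have : LinearIndependent F ![x, w 2] := by
      rw [LinearIndependent.pair_iff] at hlx ⊢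
      intro s t hst
      have := hlx t s (by rw [add_comm]; exact hst)
      exact ⟨this.2, this.1⟩
    exact (C this hxx (hwv.uu 2 2) ((hermForm_eq_zero_comm hF).1 h2x) hax hb).1
  have s2 : a2 * a2 = s := sq_of hw01 hl1 hl21 h2'
  have s3 : a3 * a3 = s := sq_of (hlli ω) (hl ω) (hl2 ω) h3
  have s4 : a4 * a4 = s := sq_of (hlli (ω ^ 2)) (hl (ω ^ 2)) (hl2 (ω ^ 2)) h4
  have hs1 : s = 1 := by
    have hll : ∀ α β γ δ : F, α * δ - β * γ ≠ 0 →
        LinearIndependent F ![α • w 0 + β • w 1, γ • w 0 + δ • w 1] := by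
      intro α β γ δ hd
      rw [LinearIndependent.pair_iff]
      intro s t hst
      have h1 : hermForm 6 F 2 (s • (α • w 0 + β • w 1) + t • (γ • w 0 + δ • w 1)) (v 0) = 0 := by
        rw [hst, hermForm_zero_left]
      have h3 : hermForm 6 F 2 (s • (α • w 0 + β • w 1) + t • (γ • w 0 + δ • w 1)) (v 1) = 0 := by
        rw [hst, hermForm_zero_left]
      simp only [hermForm_add_left, hermForm_smul_left, hwv.uv] at h1 h3
      simp at h1 h3
      constructor
      · have : s * (α * δ - β * γ) = 0 := by linear_combination δ * h1 - γ * h3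
        exact (mul_eq_zero.1 this).resolve_right hd
      · have : t * (α * δ - β * γ) = 0 := by linear_combination α * h3 - β * h1
        exact (mul_eq_zero.1 this).resolve_right hd
    have com : ∀ (α β γ δ : F), α * δ - β * γ ≠ 0 → ∀ {x y : Fin 6 → F} {a b : H},
        x = α • w 0 + β • w 1 → y = γ • w 0 + δ • w 1 →
        φ a = pr (tv x) → φ b = pr (tv y) → Commute a b := by
      rintro α β γ δ hd x y a b rfl rfl ha hb
      refine toC (C (hll α β γ δ hd) ?_ ?_ ?_ ha hb).2 <;>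
      simp only [hermForm_add_left, hermForm_add_right hF, hermForm_smul_left, hermForm_smul_right,
        hwv.uu, mul_zero, add_zero]
    have p0 : w 0 = (1 : F) • w 0 + (0 : F) • w 1 := by rw [one_smul, zero_smul, add_zero]
    have p1 : w 1 = (0 : F) • w 0 + (1 : F) • w 1 := by rw [one_smul, zero_smul, zero_add]
    have p2 : w 0 + w 1 = (1 : F) • w 0 + (1 : F) • w 1 := by rw [one_smul, one_smul]
    have p3 : ∀ c : F, w 0 + c • w 1 = (1 : F) • w 0 + c • w 1 := by intro c; rw [one_smul]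
    have o0 : ω ≠ 0 := omega_ne_zero hω
    have o1 : ω ≠ 1 := omega_ne_one hF hω
    have o2 : ω ^ 2 ≠ 1 := by
      rw [hω]
      intro h
      exact o0 (by linear_combination h)
    have o3 : ω ^ 2 ≠ ω := by
      rw [hω]
      intro h
      exact one_ne_zero (α := F) (by linear_combination h)
    have c01 : Commute a0 a1 := com 1 0 0 1 (by simp) p0 p1 h0 h1
    have c02 : Commute a0 a2 := com 1 0 1 1 (by simp) p0 p2 h0 h2'
    have c03 : Commute a0 a3 := com 1 0 1 ω (by simpa using o0) p0 (p3 _) h0 h3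
    have c04 : Commute a0 a4 := com 1 0 1 (ω ^ 2) (by simpa using o0) p0 (p3 _) h0 h4
    have c12 : Commute a1 a2 := com 0 1 1 1 (by simp) p1 p2 h1 h2'
    have c13 : Commute a1 a3 := com 0 1 1 ω (by simp) p1 (p3 _) h1 h3
    have c14 : Commute a1 a4 := com 0 1 1 (ω ^ 2) (by simp) p1 (p3 _) h1 h4
    have c23 : Commute a2 a3 := com 1 1 1 ω (by
      rw [one_mul, one_mul]; exact sub_ne_zero.2 o1) p2 (p3 _) h2' h3
    have c24 : Commute a2 a4 := com 1 1 1 (ω ^ 2) (by
      rw [one_mul, one_mul]; exact sub_ne_zero.2 o2) p2 (p3 _) h2' h4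
    have c34 : Commute a3 a4 := com 1 ω 1 (ω ^ 2) (by
      rw [one_mul, mul_one]; exact sub_ne_zero.2 o3) (p3 _) (p3 _) h3 h4
    have m1 : ∀ {x y : H}, Commute x y → (x * y) * (x * y) = (x * x) * (y * y) := by
      intro x y h
      exact h.symm.mul_mul_mul_comm x y
    have q0 : Commute a0 (a1 * (a2 * (a3 * a4))) := c01.mul_right (c02.mul_right (c03.mul_right c04))
    have q1 : Commute a1 (a2 * (a3 * a4)) := c12.mul_right (c13.mul_right c14)
    have q2 : Commute a2 (a3 * a4) := c23.mul_right c24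
    have hp2 := D.sq' φp
    rw [m1 q0, m1 q1, m1 q2, m1 c34, ← hs, s1, s2, s3, s4] at hp2
    have hss : s * s = 1 := D.sq' φs
    rwa [hss, mul_one, hss, mul_one] at hp2
  have hC := C hli hxx hyy hxy ha' hb'
  exact ⟨hC.1.trans hs1, toC hC.2⟩

/-- Every element of order at most two lifts to an element of order at most two. -/
theorem Dbl.exists_lift (D : Dbl φ z) {e : PSU 6 F 2} (he : e * e = 1) :
    ∃ y : H, y * y = 1 ∧ φ y = e := by
  obtain ⟨g, rfl, hgg⟩ := Fi22.exists_lift hF he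
  obtain ⟨k, u, hu, hgu⟩ := exists_isTvs hF hgg
  have hk3 : k ≤ 3 := by
    have := IsTI.two_mul_le hF hu
    omega
  have m1 : ∀ {x y : H}, Commute x y → (x * y) * (x * y) = (x * x) * (y * y) := by
    intro x y h
    exact h.symm.mul_mul_mul_comm x y
  have hli : ∀ i j : Fin k, i ≠ j → LinearIndependent F ![u i, u j] := by
    intro i j hij
    have h := hu.1.comp (![i, j] : Fin 2 → Fin k) (by
      intro a b hab
      fin_cases a <;> fin_cases b
      · rfl
      · exact absurd hab hij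
      · exact absurd hab.symm hij
      · rfl)
    convert h using 1
    funext l
    fin_cases l <;> rfl
  have hex : ∀ x : Fin 6 → F, x ≠ 0 → hermForm 6 F 2 x x = 0 →
      ∃ y, LinearIndependent F ![x, y] ∧ hermForm 6 F 2 y y = 0 ∧ hermForm 6 F 2 x y = 0 := by
    intro x hx0 hxx
    obtain ⟨w, v, hwv, hw⟩ := exists_HB_of_TI hF (k := 1) (by norm_num) (u := fun _ => x)
      ⟨LinearIndependent.of_subsingleton (R := F) (0 : Fin 1) hx0, fun _ _ => hxx⟩
    have hw0 : w 0 = x := hw 0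
    refine ⟨w 1, ?_, hwv.uu 1 1, ?_⟩
    · have h := hwv.li.comp (![0, 1] : Fin 2 → Fin 3) (by decide)
      convert h using 1
      funext l
      fin_cases l
      · exact hw0.symm
      · rfl
    · rw [← hw0]; exact hwv.uu 0 1
  interval_cases k
  · refine ⟨1, by rw [one_mul], ?_⟩
    have : g = 1 := by
      apply act_ext
      intro x
      rw [hgu x]
      simp [act_one]
    rw [this, map_one]; rfl
  · obtain ⟨y, hy, hyy, hxy⟩ := hex (u 0) (hu.1.ne_zero 0) (hu.2 0 0)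
    obtain ⟨a, ha⟩ := D.surj (pr (tv (u 0)))
    obtain ⟨b, hb⟩ := D.surj (pr (tv y))
    refine ⟨a, (D.lifts hF hy (hu.2 0 0) hyy hxy ha hb).1, ?_⟩
    rw [ha]
    congr 1
    symm
    apply IsTv.eq_tv hF (hu.2 0 0)
    intro x
    rw [hgu x]
    simp
  · obtain ⟨a, ha⟩ := D.surj (pr (tv (u 0)))
    obtain ⟨b, hb⟩ := D.surj (pr (tv (u 1)))
    have h01 := D.lifts hF (hli 0 1 (by decide)) (hu.2 0 0) (hu.2 1 1) (hu.2 0 1) ha hb
    have h10 := D.lifts hF (hli 1 0 (by decide)) (hu.2 1 1) (hu.2 0 0) (hu.2 1 0) hb ha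
    refine ⟨a * b, ?_, ?_⟩
    · rw [m1 h01.2, h01.1, h10.1, one_mul]
    · have hg : g = tv (u 0) * tv (u 1) := by
        apply act_ext
        intro x
        rw [hgu x, act_mul, tv_act hF (hu.2 1 1), tv_act hF (hu.2 0 0), hermForm_add_left,
          hermForm_smul_left, hu.2, mul_zero, add_zero, Fin.sum_univ_two]
        abel
      rw [hg, map_mul, ha, hb]
      rfl
  · obtain ⟨a, ha⟩ := D.surj (pr (tv (u 0)))
    obtain ⟨b, hb⟩ := D.surj (pr (tv (u 1)))
    obtain ⟨c, hc⟩ := D.surj (pr (tv (u 2)))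
    have h01 := D.lifts hF (hli 0 1 (by decide)) (hu.2 0 0) (hu.2 1 1) (hu.2 0 1) ha hb
    have h02 := D.lifts hF (hli 0 2 (by decide)) (hu.2 0 0) (hu.2 2 2) (hu.2 0 2) ha hc
    have h12 := D.lifts hF (hli 1 2 (by decide)) (hu.2 1 1) (hu.2 2 2) (hu.2 1 2) hb hc
    have h21 := D.lifts hF (hli 2 1 (by decide)) (hu.2 2 2) (hu.2 1 1) (hu.2 2 1) hc hb
    have q0 : Commute a (b * c) := Commute.mul_right h01.2 h02.2
    refine ⟨a * (b * c), ?_, ?_⟩
    · rw [m1 q0, m1 h12.2, h01.1, h12.1, h21.1, one_mul, one_mul]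
    · have hg : g = tv (u 0) * (tv (u 1) * tv (u 2)) := by
        apply act_ext
        intro x
        rw [hgu x, act_mul, act_mul, tv_act hF (hu.2 2 2), tv_act hF (hu.2 1 1),
          tv_act hF (hu.2 0 0)]
        simp only [hermForm_add_left, hermForm_smul_left, hu.2, mul_zero, add_zero]
        rw [Fin.sum_univ_three]
        abel
      rw [hg, map_mul, map_mul, ha, hb, hc]
      rfl

end cover

end Cfsg.Agent.UDbl
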